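import Cfsg.Agent.H6.FrE3
import Cfsg.Agent.SmallDim.Fr.Basic

/-!
# A regular-like subgroup of `SO₃` containing the octahedral group is monomial
-/

set_option autoImplicit false
set_option linter.unusedSectionVars false
set_option linter.unusedVariables false

namespace Cfsg.Agent.SmallDim.Fr

open QuadraticMap Module Cfsg.Agent.Orth Cfsg.Agent.GeoMax.Ort
open Matrix

namespace M3

variable {F : Type*} [Field F]

theorem dot_sub_self {i j : Fin 3} (hij : i ≠ j) :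
    ((e i : Fin 3 → F) - e j) ⬝ᵥ (e i - e j) = 2 := by
  rw [sub_dotProduct, dotProduct_sub, dotProduct_sub, e_dot_e_self, e_dot_e_self, e_dot_e_ne hij,
    e_dot_e_ne hij.symm]
  ring

theorem r_i (h2 : (2 : F) ≠ 0) {i j : Fin 3} (hij : i ≠ j) :
    (rf (e i) * rf (e i - e j) : OGrp (Q0 F (Fin 3))) (e i) = e j := by
  have h1 : (rf ((e i : Fin 3 → F) - e j) : OGrp (Q0 F (Fin 3))) (e i) = e j := by
    rw [rf_ap (by rw [dot_sub_self hij]; exact h2), dot_sub_self hij, dotProduct_sub, e_dot_e_self,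
      e_dot_e_ne hij, sub_zero, mul_one, inv_mul_cancel₀ h2, one_smul]
    abel
  rw [mul_ap, h1, rf_ortho (e_dot_e_ne hij.symm)]

theorem r_j (h2 : (2 : F) ≠ 0) {i j : Fin 3} (hij : i ≠ j) :
    (rf (e i) * rf (e i - e j) : OGrp (Q0 F (Fin 3))) (e j) = -e i := by
  have h1 : (rf ((e i : Fin 3 → F) - e j) : OGrp (Q0 F (Fin 3))) (e j) = e i := by
    rw [rf_ap (by rw [dot_sub_self hij]; exact h2), dot_sub_self hij, dotProduct_sub, e_dot_e_self,
      e_dot_e_ne hij.symm, zero_sub, mul_neg, mul_one, mul_neg, inv_mul_cancel₀ h2, neg_one_smul]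
    abel
  rw [mul_ap, h1, rf_self (by rw [e_dot_e_self]; exact one_ne_zero)]

theorem r_k (h2 : (2 : F) ≠ 0) {i j k : Fin 3} (hki : k ≠ i) (hkj : k ≠ j) :
    (rf (e i) * rf (e i - e j) : OGrp (Q0 F (Fin 3))) (e k) = e k := by
  have h1 : (rf ((e i : Fin 3 → F) - e j) : OGrp (Q0 F (Fin 3))) (e k) = e k :=
    rf_ortho (by rw [dotProduct_sub, e_dot_e_ne hki, e_dot_e_ne hkj, sub_zero])
  rw [mul_ap, h1, rf_ortho (e_dot_e_ne hki)]

/-- the matrix representation -/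
noncomputable def rho (G : Subgroup (OGrp (Q0 F (Fin 3)))) : G →* Matrix (Fin 3) (Fin 3) F where
  toFun g := LinearMap.toMatrix' ((g.1 : (Fin 3 → F) ≃ₗ[F] (Fin 3 → F)) : (Fin 3 → F) →ₗ[F] (Fin 3 → F))
  map_one' := by
    have : (((1 : G).1 : (Fin 3 → F) ≃ₗ[F] (Fin 3 → F)) : (Fin 3 → F) →ₗ[F] (Fin 3 → F)) = LinearMap.id := by
      ext; rfl
    rw [this, LinearMap.toMatrix'_id]
  map_mul' g h := by
    rw [← LinearMap.toMatrix'_comp]
    rfl

theorem rho_ap (G : Subgroup (OGrp (Q0 F (Fin 3)))) (g : G) (v : Fin 3 → F) : rho G g *ᵥ v = g.1 v := by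
  change LinearMap.toMatrix' _ *ᵥ v = _
  rw [LinearMap.toMatrix'_mulVec]
  rfl

end M3

open M3 in
theorem mon_of_regular {F : Type*} [Field F] [Fintype F] (h2 : (2 : F) ≠ 0) (h3 : (3 : F) ≠ 0)
    (G : Subgroup (OGrp (Q0 F (Fin 3))))
    (hdet : ∀ g ∈ G, LinearMap.det ((g : (Fin 3 → F) ≃ₗ[F] (Fin 3 → F)) : (Fin 3 → F) →ₗ[F] (Fin 3 → F)) = 1)
    (h4 : ∀ i j : Fin 3, i ≠ j → rf (e i) * rf (e i - e j) ∈ G)
    (hreg : ∀ g ∈ G, g ≠ 1 → ∀ v : Fin 3 → F, v ≠ 0 → v ⬝ᵥ v = 0 → g v ≠ v) : ∀ g ∈ G, Mon g := by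
  have hfin : Finite ((Fin 3 → F) ≃ₗ[F] (Fin 3 → F)) := DFunLike.finite _
  have hfin2 : Finite (OGrp (Q0 F (Fin 3))) := inferInstance
  have hR : Cfsg.Agent.H6.FrE.Rep (rho G) := by
    refine ⟨h2, ?_, ?_, ?_⟩
    · intro g h hgh
      apply Subtype.ext
      refine OGrp_ext fun x => ?_
      have := congrArg (fun A => A *ᵥ x) hgh
      simpa only [rho_ap] using this
    · intro g
      refine ⟨?_, ?_⟩
      · ext i j
        have h1 := OGrp_dot h2 g.1 (e i) (e j)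
        rw [← rho_ap, ← rho_ap] at h1
        rw [Matrix.dotProduct_mulVec, Matrix.vecMul_mulVec, ← Matrix.dotProduct_mulVec] at h1
        simpa [e, Matrix.one_apply, Pi.single_apply, eq_comm] using h1
      · change (LinearMap.toMatrix' _).det = 1
        rw [LinearMap.det_toMatrix']
        exact hdet g.1 g.2
    · intro g hg v hv hgv h0
      rw [rho_ap] at hgv
      exact hreg g.1 g.2 (fun h => hg (Subtype.ext h)) v hv h0 hgv
  have h01 : (0 : Fin 3) ≠ 1 := by decide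
  have h02 : (0 : Fin 3) ≠ 2 := by decide
  have h12 : (1 : Fin 3) ≠ 2 := by decide
  have hnm : ∀ i : Fin 3, (-e i : Fin 3 → F) ≠ e i := by
    intro i h
    have h1 := congrFun h i
    simp only [e, Pi.neg_apply, Pi.single_eq_same] at h1
    apply h2
    linear_combination -h1
  set q : G := ⟨_, h4 1 2 h12⟩ with hq
  set r02 : G := ⟨_, h4 0 2 h02⟩ with hr02
  set r01 : G := ⟨_, h4 0 1 h01⟩ with hr01
  have q0 : q.1 (e 0) = e 0 := r_k h2 h01 h02
  have q1 : q.1 (e 1) = e 2 := r_i h2 h12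
  have q2 : q.1 (e 2) = -e 1 := r_j h2 h12
  have a0 : r01.1 (e 0) = e 1 := r_i h2 h01
  have a1 : r01.1 (e 1) = -e 0 := r_j h2 h01
  have a2 : r01.1 (e 2) = e 2 := r_k h2 h02.symm h12.symm
  have b0 : r02.1 (e 0) = e 2 := r_i h2 h02
  have b1 : r02.1 (e 1) = e 1 := r_k h2 h01.symm h12
  have b2 : r02.1 (e 2) = -e 0 := r_j h2 h02
  have hmul : ∀ (g h : G) (x : Fin 3 → F), (g * h).1 x = g.1 (h.1 x) := fun _ _ _ => rfl
  have hq4 : orderOf q = 4 := by
    have : orderOf q = 2 ^ (1 + 1) := by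
      refine orderOf_eq_prime_pow ?_ ?_
      · intro h
        have h1 : (q ^ 2 ^ 1).1 (e 1) = e 1 := by rw [h]; rfl
        rw [pow_one, pow_two, hmul, q1, q2] at h1
        exact hnm 1 h1
      · apply Subtype.ext
        refine ext_e fun i => ?_
        have h4' : q ^ 2 ^ (1 + 1) = q * q * (q * q) := by
          rw [show 2 ^ (1 + 1) = 2 + 2 by norm_num, pow_add, pow_two]
        rw [h4', hmul, hmul, hmul]
        fin_cases i
        · change q.1 (q.1 (q.1 (q.1 (e 0)))) = e 0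
          rw [q0, q0, q0, q0]
        · change q.1 (q.1 (q.1 (q.1 (e 1)))) = e 1
          rw [q1, q2, ap_neg, q1, ap_neg, q2, neg_neg]
        · change q.1 (q.1 (q.1 (q.1 (e 2)))) = e 2
          rw [q2, ap_neg, q1, ap_neg, q2, neg_neg, q1]
    simpa using this
  have hinv : ∀ {x y : Fin 3 → F} (g : G), g.1 x = y → (g⁻¹).1 y = x := by
    rintro x y g rfl
    exact inv_ap_self g.1 x
  have hones : (fun _ => 1 : Fin 3 → F) = e 0 + e 1 + e 2 := by
    ext i
    fin_cases i <;> simp [e]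
  have hE := Cfsg.Agent.H6.FrE.E1 hR q (r02⁻¹ * r01) (r02 * r02) (r01 * (r02 * r02))
    (by rw [rho_ap]; exact q0) hq4
    (by rw [rho_ap, hmul]; change (r02⁻¹).1 (r01.1 (e 0)) = e 1; rw [a0]; exact hinv r02 b1)
    (by rw [rho_ap, hmul]; change (r02⁻¹).1 (r01.1 (e 1)) = e 2; rw [a1, ap_neg]
        have := hinv r02 b2
        rw [ap_neg] at this
        exact this)
    (by rw [rho_ap, hmul]; change (r02⁻¹).1 (r01.1 (e 2)) = e 0; rw [a2]; exact hinv r02 b0)
    (by rw [rho_ap, hmul]; change r02.1 (r02.1 (e 0)) = -e 0; rw [b0, b2])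
    (by rw [rho_ap, hones, hmul, hmul]
        rw [ap_add, ap_add, ap_add, ap_add, ap_add, ap_add, b0, b1, b1, b2, ap_neg r02.1, b0, ap_neg, ap_neg, a0, a1, a2]
        abel)
  intro g hg i
  obtain ⟨j, hj⟩ := hE ⟨g, hg⟩ i
  refine ⟨j, ?_⟩
  rw [rho_ap] at hj
  exact hj

end Cfsg.Agent.SmallDim.Fr
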