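import Mathlib

/-!
# Proper orthogonal 3x3 matrices (preparation for `light_of_three`)
-/

set_option autoImplicit false
set_option linter.unusedSectionVars false
set_option linter.unusedVariables false

namespace Cfsg.Agent.H6.FrE

open Matrix

variable {F : Type*} [Field F]

/-- proper orthogonal 3x3 matrices -/
def SO (A : Matrix (Fin 3) (Fin 3) F) : Prop := Aᵀ * A = 1 ∧ A.det = 1

theorem SO.mul' {A : Matrix (Fin 3) (Fin 3) F} (h : SO A) : A * Aᵀ = 1 := mul_eq_one_comm.1 h.1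

theorem SO.dot {A : Matrix (Fin 3) (Fin 3) F} (h : SO A) (x y : Fin 3 → F) :
    (A *ᵥ x) ⬝ᵥ (A *ᵥ y) = x ⬝ᵥ y := by
  rw [Matrix.dotProduct_mulVec, Matrix.vecMul_mulVec, h.1, Matrix.vecMul_one]

theorem eq_of_dot3 {x y : Fin 3 → F} (h : ∀ z, z ⬝ᵥ x = z ⬝ᵥ y) : x = y := by
  funext i
  have := h (Pi.single i 1)
  simpa using this

theorem SO.cross {A : Matrix (Fin 3) (Fin 3) F} (h : SO A) (x y : Fin 3 → F) :
    A *ᵥ (x ⨯₃ y) = (A *ᵥ x) ⨯₃ (A *ᵥ y) := by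
  apply eq_of_dot3
  intro z
  have hz : z = A *ᵥ (Aᵀ *ᵥ z) := by rw [Matrix.mulVec_mulVec, h.mul', Matrix.one_mulVec]
  generalize Aᵀ *ᵥ z = z' at hz
  subst hz
  rw [h.dot, triple_product_eq_det, triple_product_eq_det]
  have h1 : Matrix.of ![A *ᵥ z', A *ᵥ x, A *ᵥ y] = Matrix.of ![z', x, y] * Aᵀ := by
    ext i j
    fin_cases i <;> simp [Matrix.mul_apply, Matrix.mulVec, dotProduct, mul_comm]
  have h2 := congrArg Matrix.det h1
  rw [Matrix.det_mul, Matrix.det_transpose, h.2, mul_one] at h2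
  exact h2.symm

theorem SO.exists_fixed {A : Matrix (Fin 3) (Fin 3) F} (h : SO A) (h2 : (2 : F) ≠ 0) :
    ∃ v, v ≠ 0 ∧ A *ᵥ v = v := by
  have h1 : (A - 1) * Aᵀ = -((A - 1)ᵀ) := by
    rw [sub_mul, h.mul', one_mul, Matrix.transpose_sub, Matrix.transpose_one, neg_sub]
  have h3 := congrArg Matrix.det h1
  rw [Matrix.det_mul, Matrix.det_transpose, h.2, mul_one, Matrix.det_neg, Matrix.det_transpose] at h3
  have h4 : (A - 1).det = 0 := by
    simp only [Fintype.card_fin] at h3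
    have : (2 : F) * (A - 1).det = 0 := by linear_combination h3
    exact (mul_eq_zero.1 this).resolve_left h2
  obtain ⟨v, hv, hv'⟩ := Matrix.exists_mulVec_eq_zero_iff.2 h4
  refine ⟨v, hv, ?_⟩
  rw [Matrix.sub_mulVec, Matrix.one_mulVec, sub_eq_zero] at hv'
  exact hv'

theorem SO.fixed_unique {A : Matrix (Fin 3) (Fin 3) F} (h : SO A) (hA : A ≠ 1)
    (hs : ∀ v, v ≠ 0 → A *ᵥ v = v → v ⬝ᵥ v ≠ 0) {v w : Fin 3 → F} (hv : A *ᵥ v = v) (hw : A *ᵥ w = w)
    (hv0 : v ≠ 0) : ∃ c : F, w = c • v := by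
  have hvv := hs v hv0 hv
  have hn : A *ᵥ (v ⨯₃ w) = v ⨯₃ w := by rw [h.cross, hv, hw]
  by_cases h0 : v ⨯₃ w = 0
  · have h1 := cross_cross_eq_smul_sub_smul v w v
    rw [h0] at h1
    rw [map_zero, LinearMap.zero_apply] at h1
    have h2 : (v ⬝ᵥ v) • w = (w ⬝ᵥ v) • v := by
      rw [← sub_eq_zero, ← h1]
    refine ⟨(v ⬝ᵥ v)⁻¹ * (w ⬝ᵥ v), ?_⟩
    rw [mul_smul, ← h2, smul_smul, inv_mul_cancel₀ hvv, one_smul]
  · exfalso
    have h1 := hs _ h0 hn
    have h2 : Matrix.det (Matrix.of ![v ⨯₃ w, v, w]) ≠ 0 := by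
      have := triple_product_eq_det (v ⨯₃ w) v w
      rw [this] at h1; exact h1
    apply hA
    have h3 : Matrix.of ![v ⨯₃ w, v, w] * Aᵀ = Matrix.of ![v ⨯₃ w, v, w] := by
      have key : ∀ x : Fin 3 → F, A *ᵥ x = x → ∀ j, x ⬝ᵥ (fun k => Aᵀ k j) = x j := by
        intro x hx j
        have := congrFun hx j
        rw [← this]
        simp [Matrix.mulVec, dotProduct, mul_comm]
      ext i j
      fin_cases i
      · exact key _ hn j
      · exact key _ hv j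
      · exact key _ hw j
    have h4 : IsUnit (Matrix.of ![v ⨯₃ w, v, w]) :=
      (Matrix.isUnit_iff_isUnit_det _).2 (isUnit_iff_ne_zero.2 h2)
    have h5 : Aᵀ = 1 := by
      apply h4.mul_left_cancel
      rw [h3, mul_one]
    rw [← Matrix.transpose_transpose A, h5, Matrix.transpose_one]

end Cfsg.Agent.H6.FrE
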