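import Cfsg.Agent.H6.FrE1

/-!
# Counting in a finite group of proper orthogonal 3x3 matrices
-/

set_option autoImplicit false
set_option linter.unusedSectionVars false
set_option linter.unusedVariables false

namespace Cfsg.Agent.H6.FrE

open Matrix

section TI

variable {G : Type*} [Group G]

/-- counting the conjugates of the elements of a TI subgroup -/
theorem ti_card [Finite G] (A : Subgroup G)
    (hTI : ∀ g x : G, x ≠ 1 → x ∈ A → g * x * g⁻¹ ∈ A → g ∈ Subgroup.normalizer (A : Set G)) :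
    Nat.card {y : G // y ≠ 1 ∧ ∃ g : G, g * y * g⁻¹ ∈ A} * Nat.card (Subgroup.normalizer (A : Set G)) =
      Nat.card G * (Nat.card A - 1) := by
  classical
  choose c hc using fun y : {y : G // y ≠ 1 ∧ ∃ g : G, g * y * g⁻¹ ∈ A} => y.2.2
  have hmem : ∀ (y : {y : G // y ≠ 1 ∧ ∃ g : G, g * y * g⁻¹ ∈ A}) (n : Subgroup.normalizer (A : Set G)),
      (n.1 * c y) * y.1 * (n.1 * c y)⁻¹ ∈ A := by
    intro y n
    have h1 := (Subgroup.mem_normalizer_iff.1 n.2 (c y * y.1 * (c y)⁻¹)).1 (hc y)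
    have h2 : (n.1 * c y) * y.1 * (n.1 * c y)⁻¹ = n.1 * (c y * y.1 * (c y)⁻¹) * n.1⁻¹ := by group
    rw [h2]; exact h1
  have hback : ∀ (g : G) (a : A), a ≠ 1 → g⁻¹ * a.1 * g ≠ 1 ∧ ∃ g' : G, g' * (g⁻¹ * a.1 * g) * g'⁻¹ ∈ A := by
    intro g a ha
    refine ⟨fun h => ha ?_, g, ?_⟩
    · apply Subtype.ext
      have : a.1 = g * (g⁻¹ * a.1 * g) * g⁻¹ := by group
      rw [this, h]; simp
    · have : g * (g⁻¹ * a.1 * g) * g⁻¹ = a.1 := by group
      rw [this]; exact a.2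
  let e : ({y : G // y ≠ 1 ∧ ∃ g : G, g * y * g⁻¹ ∈ A} × Subgroup.normalizer (A : Set G)) ≃
      (G × {a : A // a ≠ 1}) :=
    { toFun := fun p => (p.2.1 * c p.1, ⟨⟨(p.2.1 * c p.1) * p.1.1 * (p.2.1 * c p.1)⁻¹, hmem p.1 p.2⟩, by
        intro h
        have h1 := congrArg Subtype.val h
        have h1 : (p.2.1 * c p.1) * p.1.1 * (p.2.1 * c p.1)⁻¹ = 1 := h1
        exact p.1.2.1 (conj_eq_one_iff.1 h1)⟩)
      invFun := fun q => (⟨q.1⁻¹ * q.2.1.1 * q.1, hback q.1 q.2.1 q.2.2⟩,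
        ⟨q.1 * (c ⟨q.1⁻¹ * q.2.1.1 * q.1, hback q.1 q.2.1 q.2.2⟩)⁻¹, by
          set y : {y : G // y ≠ 1 ∧ ∃ g : G, g * y * g⁻¹ ∈ A} := ⟨q.1⁻¹ * q.2.1.1 * q.1, hback q.1 q.2.1 q.2.2⟩ with hy
          refine hTI _ (c y * y.1 * (c y)⁻¹) ?_ (hc y) ?_
          · intro h
            exact y.2.1 (conj_eq_one_iff.1 h)
          · have : q.1 * (c y)⁻¹ * (c y * y.1 * (c y)⁻¹) * (q.1 * (c y)⁻¹)⁻¹ = q.2.1.1 := by
              rw [hy]; group
            rw [this]; exact q.2.1.2⟩)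
      left_inv := by
        rintro ⟨y, n⟩
        have hy : (⟨(n.1 * c y)⁻¹ * ((n.1 * c y) * y.1 * (n.1 * c y)⁻¹) * (n.1 * c y),
            hback (n.1 * c y) ⟨(n.1 * c y) * y.1 * (n.1 * c y)⁻¹, hmem y n⟩ (by
              intro h
              have h1 := congrArg Subtype.val h
              have h1 : (n.1 * c y) * y.1 * (n.1 * c y)⁻¹ = 1 := h1
              exact y.2.1 (conj_eq_one_iff.1 h1))⟩ : {y : G // y ≠ 1 ∧ ∃ g : G, g * y * g⁻¹ ∈ A}) = y := by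
          apply Subtype.ext
          change (n.1 * c y)⁻¹ * ((n.1 * c y) * y.1 * (n.1 * c y)⁻¹) * (n.1 * c y) = y.1
          group
        refine Prod.ext hy ?_
        apply Subtype.ext
        change (n.1 * c y) * (c _)⁻¹ = n.1
        rw [hy]
        group
      right_inv := by
        rintro ⟨g, a, ha⟩
        refine Prod.ext ?_ ?_
        · change g * (c _)⁻¹ * c _ = g
          group
        · apply Subtype.ext
          apply Subtype.ext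
          change (g * (c _)⁻¹ * c _) * (g⁻¹ * a.1 * g) * (g * (c _)⁻¹ * c _)⁻¹ = a.1
          group }
  have h1 := Nat.card_congr e
  rw [Nat.card_prod, Nat.card_prod] at h1
  rw [h1]
  congr 1
  have : Fintype A := Fintype.ofFinite _
  rw [Nat.card_eq_fintype_card, Nat.card_eq_fintype_card, Fintype.card_subtype_compl, Fintype.card_subtype_eq]

end TI

variable {F : Type*} [Field F] {G : Type*} [Group G]

structure Rep (ρ : G →* Matrix (Fin 3) (Fin 3) F) : Prop where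
  two : (2 : F) ≠ 0
  inj : Function.Injective ρ
  so : ∀ g, SO (ρ g)
  ns : ∀ g, g ≠ 1 → ∀ v, v ≠ 0 → ρ g *ᵥ v = v → v ⬝ᵥ v ≠ 0

theorem ap_mul (ρ : G →* Matrix (Fin 3) (Fin 3) F) (g h : G) (v : Fin 3 → F) :
    ρ (g * h) *ᵥ v = ρ g *ᵥ (ρ h *ᵥ v) := by rw [map_mul, Matrix.mulVec_mulVec]

theorem ap_one (ρ : G →* Matrix (Fin 3) (Fin 3) F) (v : Fin 3 → F) : ρ 1 *ᵥ v = v := by
  rw [map_one, Matrix.one_mulVec]

theorem ap_inv_self (ρ : G →* Matrix (Fin 3) (Fin 3) F) (g : G) (v : Fin 3 → F) :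
    ρ g⁻¹ *ᵥ (ρ g *ᵥ v) = v := by rw [← ap_mul, inv_mul_cancel, ap_one]

theorem ap_self_inv (ρ : G →* Matrix (Fin 3) (Fin 3) F) (g : G) (v : Fin 3 → F) :
    ρ g *ᵥ (ρ g⁻¹ *ᵥ v) = v := by rw [← ap_mul, mul_inv_cancel, ap_one]

/-- stabiliser of a vector -/
def St (ρ : G →* Matrix (Fin 3) (Fin 3) F) (v : Fin 3 → F) : Subgroup G where
  carrier := {g | ρ g *ᵥ v = v}
  mul_mem' {a b} ha hb := by
    change ρ (a * b) *ᵥ v = v
    rw [ap_mul, show ρ b *ᵥ v = v from hb]; exact ha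
  one_mem' := ap_one ρ v
  inv_mem' {a} ha := by
    change ρ a⁻¹ *ᵥ v = v
    conv_lhs => rw [← show ρ a *ᵥ v = v from ha]
    exact ap_inv_self ρ a v

theorem mem_St {ρ : G →* Matrix (Fin 3) (Fin 3) F} {v : Fin 3 → F} {g : G} : g ∈ St ρ v ↔ ρ g *ᵥ v = v := Iff.rfl

theorem St_smul {ρ : G →* Matrix (Fin 3) (Fin 3) F} {c : F} (hc : c ≠ 0) (v : Fin 3 → F) :
    St ρ (c • v) = St ρ v := by
  ext g
  rw [mem_St, mem_St, Matrix.mulVec_smul]
  exact ⟨fun h => smul_right_injective _ hc h, fun h => by rw [h]⟩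

theorem mem_St_ap {ρ : G →* Matrix (Fin 3) (Fin 3) F} {v : Fin 3 → F} {g y : G} :
    y ∈ St ρ (ρ g *ᵥ v) ↔ g⁻¹ * y * g ∈ St ρ v := by
  rw [mem_St, mem_St, ap_mul, ap_mul]
  constructor
  · intro h
    rw [h, ap_inv_self]
  · intro h
    conv_rhs => rw [← h]
    rw [ap_self_inv]

theorem mem_St_ap' {ρ : G →* Matrix (Fin 3) (Fin 3) F} {v : Fin 3 → F} {g y : G} :
    y ∈ St ρ (ρ g⁻¹ *ᵥ v) ↔ g * y * g⁻¹ ∈ St ρ v := by
  rw [mem_St_ap, inv_inv]

variable {ρ : G →* Matrix (Fin 3) (Fin 3) F}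

theorem ap_ne_zero {v : Fin 3 → F} (hv : v ≠ 0) (g : G) : ρ g *ᵥ v ≠ 0 := by
  intro h
  apply hv
  rw [← ap_inv_self ρ g v, h, Matrix.mulVec_zero]

theorem Rep.unique (h : Rep ρ) {g : G} (hg : g ≠ 1) {v w : Fin 3 → F} (hv0 : v ≠ 0) (hv : g ∈ St ρ v)
    (hw : g ∈ St ρ w) : ∃ c : F, w = c • v :=
  (h.so g).fixed_unique (fun h1 => hg (h.inj (by rw [h1, map_one]))) (h.ns g hg) hv hw hv0

noncomputable def Rep.ax (h : Rep ρ) (g : G) : Fin 3 → F := Classical.choose ((h.so g).exists_fixed h.two)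

theorem Rep.ax_ne (h : Rep ρ) (g : G) : h.ax g ≠ 0 := (Classical.choose_spec ((h.so g).exists_fixed h.two)).1

theorem Rep.ax_mem (h : Rep ρ) (g : G) : g ∈ St ρ (h.ax g) :=
  (Classical.choose_spec ((h.so g).exists_fixed h.two)).2

theorem Rep.St_eq (h : Rep ρ) {x : G} {v w : Fin 3 → F} (hx : x ≠ 1) (hv : v ≠ 0) (hw : w ≠ 0) (hxv : x ∈ St ρ v)
    (hxw : x ∈ St ρ w) : St ρ w = St ρ v := by
  obtain ⟨c, hc⟩ := h.unique hx hv hxv hxw
  have hc0 : c ≠ 0 := by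
    rintro rfl
    rw [zero_smul] at hc
    exact hw hc
  rw [hc, St_smul hc0]

theorem Rep.St_ax (h : Rep ρ) {x : G} {v : Fin 3 → F} (hx : x ≠ 1) (hv : v ≠ 0) (hxv : x ∈ St ρ v) :
    St ρ (h.ax x) = St ρ v := h.St_eq hx hv (h.ax_ne x) hxv (h.ax_mem x)

theorem Rep.TI (h : Rep ρ) {v : Fin 3 → F} (hv : v ≠ 0) (g x : G) (hx : x ≠ 1) (hxv : x ∈ St ρ v)
    (hg : g * x * g⁻¹ ∈ St ρ v) : g ∈ Subgroup.normalizer (St ρ v : Set G) := by
  rw [← mem_St_ap'] at hg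
  have h1 := h.St_eq hx hv (ap_ne_zero hv _) hxv hg
  rw [Subgroup.mem_normalizer_iff]
  intro y
  rw [← mem_St_ap', h1]

theorem Rep.flip_or (h : Rep ρ) {v : Fin 3 → F} (hv : v ≠ 0) {x n : G} (hx : x ≠ 1) (hxv : x ∈ St ρ v)
    (hn : n ∈ Subgroup.normalizer (St ρ v : Set G)) : ρ n *ᵥ v = v ∨ ρ n *ᵥ v = -v := by
  have h1 : n * x * n⁻¹ ∈ St ρ v := (Subgroup.mem_normalizer_iff.1 hn x).1 hxv
  have h2 : n * x * n⁻¹ ∈ St ρ (ρ n *ᵥ v) := by
    rw [mem_St_ap]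
    have : n⁻¹ * (n * x * n⁻¹) * n = x := by group
    rw [this]; exact hxv
  have h3 : n * x * n⁻¹ ≠ 1 := fun h4 => hx (conj_eq_one_iff.1 h4)
  obtain ⟨c, hc⟩ := h.unique h3 hv h1 h2
  have h4 := (h.so n).dot v v
  rw [hc, smul_dotProduct, dotProduct_smul, smul_eq_mul, smul_eq_mul] at h4
  have h5 := h.ns x hx v hv hxv
  have h6 : c * c = 1 := by
    have : (c * c - 1) * (v ⬝ᵥ v) = 0 := by linear_combination h4
    exact sub_eq_zero.1 ((mul_eq_zero.1 this).resolve_right h5)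
  rcases mul_self_eq_one_iff.1 h6 with h7 | h7
  · left; rw [hc, h7, one_smul]
  · right; rw [hc, h7, neg_one_smul]

theorem Rep.neg_ne (h : Rep ρ) {v : Fin 3 → F} (hv : v ≠ 0) : -v ≠ v := by
  intro h1
  apply hv
  have h2 : (2 : F) • v = 0 := by
    rw [two_smul]
    nth_rewrite 1 [← h1]
    exact neg_add_cancel v
  exact (smul_eq_zero.1 h2).resolve_left h.two

theorem Rep.mem_N_of_flip (h : Rep ρ) {v : Fin 3 → F} {n : G} (hn : ρ n *ᵥ v = -v) :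
    n ∈ Subgroup.normalizer (St ρ v : Set G) := by
  have h0 : ρ n⁻¹ *ᵥ v = (-1 : F) • v := by
    have h1 := ap_inv_self ρ n v
    rw [hn, Matrix.mulVec_neg] at h1
    rw [neg_one_smul, ← h1, neg_neg]
    rw [h1]
  rw [Subgroup.mem_normalizer_iff]
  intro y
  rw [← mem_St_ap', h0, St_smul (neg_ne_zero.2 one_ne_zero)]

theorem St_le_N (v : Fin 3 → F) : St ρ v ≤ Subgroup.normalizer (St ρ v : Set G) := Subgroup.le_normalizer

theorem Rep.card_N_of_flip [Finite G] (h : Rep ρ) {v : Fin 3 → F} (hv : v ≠ 0) {x : G} (hx : x ≠ 1)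
    (hxv : x ∈ St ρ v) {n : G} (hn : ρ n *ᵥ v = -v) :
    Nat.card (Subgroup.normalizer (St ρ v : Set G)) = 2 * Nat.card (St ρ v) := by
  have hnN := h.mem_N_of_flip hn
  have h1 : ((St ρ v).subgroupOf (Subgroup.normalizer (St ρ v : Set G))).index = 2 := by
    rw [Subgroup.index_eq_two_iff]
    refine ⟨⟨n, hnN⟩, ?_⟩
    rintro ⟨b, hb⟩
    rw [Subgroup.mem_subgroupOf, Subgroup.mem_subgroupOf]
    change Xor (b * n ∈ St ρ v) (b ∈ St ρ v)
    rw [mem_St, mem_St, ap_mul, hn, Matrix.mulVec_neg]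
    rcases h.flip_or hv hx hxv hb with h2 | h2
    · right
      refine ⟨h2, ?_⟩
      rw [h2]; exact h.neg_ne hv
    · left
      rw [h2]
      exact ⟨neg_neg v, h.neg_ne hv⟩
  have h2 := Subgroup.card_mul_index ((St ρ v).subgroupOf (Subgroup.normalizer (St ρ v : Set G)))
  rw [h1, Nat.card_congr (Subgroup.subgroupOfEquivOfLe (St_le_N v)).toEquiv] at h2
  rw [← h2, mul_comm]

theorem Rep.card_N [Finite G] (h : Rep ρ) {v : Fin 3 → F} (hv : v ≠ 0) {x : G} (hx : x ≠ 1) (hxv : x ∈ St ρ v) :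
    Nat.card (Subgroup.normalizer (St ρ v : Set G)) = Nat.card (St ρ v) ∨
      Nat.card (Subgroup.normalizer (St ρ v : Set G)) = 2 * Nat.card (St ρ v) := by
  by_cases hf : ∃ n, ρ n *ᵥ v = -v
  · obtain ⟨n, hn⟩ := hf
    exact Or.inr (h.card_N_of_flip hv hx hxv hn)
  · left
    have : Subgroup.normalizer (St ρ v : Set G) = St ρ v := by
      apply le_antisymm _ (St_le_N v)
      intro n hn
      rcases h.flip_or hv hx hxv hn with h2 | h2
      · exact h2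
      · exact absurd ⟨n, h2⟩ hf
    rw [this]

end Cfsg.Agent.H6.FrE
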