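import Cfsg.Agent.H6.FrE2

/-!
# The class equation of a finite group of proper orthogonal 3x3 matrices
-/

set_option autoImplicit false
set_option linter.unusedSectionVars false
set_option linter.unusedVariables false

namespace Cfsg.Agent.H6.FrE

open Matrix

variable {F : Type*} [Field F] {G : Type*} [Group G] {ρ : G →* Matrix (Fin 3) (Fin 3) F}

section cls
variable [Fintype G]

open Classical in
/-- all the non-identity elements conjugate into the stabiliser of the axis of `x` -/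
noncomputable def Rep.cl (h : Rep ρ) (x : G) : Finset G :=
  Finset.univ.filter (fun y => y ≠ 1 ∧ ∃ g : G, g * y * g⁻¹ ∈ St ρ (h.ax x))

theorem Rep.mem_cl (h : Rep ρ) {x y : G} : y ∈ h.cl x ↔ y ≠ 1 ∧ ∃ g : G, g * y * g⁻¹ ∈ St ρ (h.ax x) := by
  classical
  simp [Rep.cl]

theorem Rep.self_mem_cl (h : Rep ρ) {x : G} (hx : x ≠ 1) : x ∈ h.cl x :=
  h.mem_cl.2 ⟨hx, 1, by simpa using h.ax_mem x⟩

theorem Rep.cl_eq (h : Rep ρ) {x y : G} (hy : y ∈ h.cl x) : h.cl y = h.cl x := by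
  obtain ⟨hy1, g, hg⟩ := h.mem_cl.1 hy
  have h1 : y ∈ St ρ (ρ g⁻¹ *ᵥ h.ax x) := mem_St_ap'.2 hg
  have h2 := h.St_ax hy1 (ap_ne_zero (h.ax_ne x) g⁻¹) h1
  ext z
  rw [h.mem_cl, h.mem_cl, h2]
  constructor
  · rintro ⟨hz, k, hk⟩
    refine ⟨hz, g * k, ?_⟩
    rw [mem_St_ap'] at hk
    have : g * k * z * (g * k)⁻¹ = g * (k * z * k⁻¹) * g⁻¹ := by group
    rw [this]; exact hk
  · rintro ⟨hz, k, hk⟩
    refine ⟨hz, g⁻¹ * k, ?_⟩
    rw [mem_St_ap']
    have : g * (g⁻¹ * k * z * (g⁻¹ * k)⁻¹) * g⁻¹ = k * z * k⁻¹ := by group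
    rw [this]; exact hk

theorem Rep.card_cl (h : Rep ρ) (x : G) :
    (h.cl x).card * Nat.card (Subgroup.normalizer (St ρ (h.ax x) : Set G)) =
      Nat.card G * (Nat.card (St ρ (h.ax x)) - 1) := by
  classical
  rw [← ti_card _ (h.TI (h.ax_ne x))]
  congr 1
  rw [Nat.card_eq_fintype_card, Fintype.card_subtype]
  unfold Rep.cl
  congr 1

/-- the proportion of the class of `x` -/
noncomputable def Rep.tau (h : Rep ρ) (x : G) : ℚ := ((h.cl x).card : ℚ) / (Nat.card G : ℚ)

theorem one_lt_card {x : G} {v : Fin 3 → F} (hx : x ≠ 1) (hxv : x ∈ St ρ v) : 2 ≤ Nat.card (St ρ v) := by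
  have : Nontrivial (St ρ v) := ⟨⟨⟨x, hxv⟩, 1, fun h => hx (congrArg Subtype.val h)⟩⟩
  exact Finite.one_lt_card

theorem Rep.tau_eq (h : Rep ρ) {x : G} (hx : x ≠ 1) :
    h.tau x = ((Nat.card (St ρ (h.ax x)) : ℚ) - 1) / (Nat.card (Subgroup.normalizer (St ρ (h.ax x) : Set G)) : ℚ) := by
  have h1 := h.card_cl x
  have h2 := one_lt_card hx (h.ax_mem x)
  have hN : (Nat.card G : ℚ) ≠ 0 := by exact_mod_cast Nat.card_pos.ne'
  have hM : (Nat.card (Subgroup.normalizer (St ρ (h.ax x) : Set G)) : ℚ) ≠ 0 := by exact_mod_cast Nat.card_pos.ne'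
  have h3 : ((h.cl x).card : ℚ) * (Nat.card (Subgroup.normalizer (St ρ (h.ax x) : Set G)) : ℚ) =
      (Nat.card G : ℚ) * ((Nat.card (St ρ (h.ax x)) : ℚ) - 1) := by
    have h4 : (((Nat.card (St ρ (h.ax x)) - 1 : ℕ)) : ℚ) = (Nat.card (St ρ (h.ax x)) : ℚ) - 1 := by
      rw [Nat.cast_sub (by omega)]; simp
    rw [← h4]
    exact_mod_cast h1
  unfold Rep.tau
  rw [div_eq_div_iff hN hM, h3]
  ring

theorem Rep.tau_flip (h : Rep ρ) {x : G} {v : Fin 3 → F} (hv : v ≠ 0) (hx : x ≠ 1) (hxv : x ∈ St ρ v) {n : G}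
    (hn : ρ n *ᵥ v = -v) : h.tau x = (1 - 1 / (Nat.card (St ρ v) : ℚ)) / 2 := by
  rw [h.tau_eq hx, h.St_ax hx hv hxv, h.card_N_of_flip hv hx hxv hn]
  have h2 := one_lt_card hx hxv
  have : (Nat.card (St ρ v) : ℚ) ≠ 0 := by exact_mod_cast (by omega : Nat.card (St ρ v) ≠ 0)
  push_cast
  field_simp

theorem Rep.tau_cases (h : Rep ρ) {x : G} (hx : x ≠ 1) :
    h.tau x = 1 / 4 ∨ (1 / 3 ≤ h.tau x ∧ h.tau x < 1 / 2) ∨ h.tau x = 1 / 2 ∨ 2 / 3 ≤ h.tau x := by
  rw [h.tau_eq hx]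
  have h2 := one_lt_card hx (h.ax_mem x)
  set a := Nat.card (St ρ (h.ax x)) with ha
  have ha0 : (0 : ℚ) < (a : ℚ) := by exact_mod_cast (by omega : 0 < a)
  rcases h.card_N (h.ax_ne x) hx (h.ax_mem x) with h3 | h3
  · rw [h3, ← ha]
    rcases Nat.lt_or_ge a 3 with h4 | h4
    · have : a = 2 := by omega
      rw [this]
      right; right; left
      norm_num
    · right; right; right
      have h5 : (3 : ℚ) ≤ a := by exact_mod_cast h4
      rw [div_le_div_iff₀ (by norm_num) ha0]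
      linarith
  · rw [h3, ← ha]
    push_cast
    rcases Nat.lt_or_ge a 3 with h4 | h4
    · have : a = 2 := by omega
      rw [this]
      left
      norm_num
    · right; left
      have h5 : (3 : ℚ) ≤ a := by exact_mod_cast h4
      constructor
      · rw [div_le_div_iff₀ (by norm_num) (by linarith)]
        linarith
      · rw [div_lt_div_iff₀ (by linarith) (by norm_num)]
        linarith

theorem Rep.tau_ge (h : Rep ρ) {x : G} (hx : x ≠ 1) : 1 / 4 ≤ h.tau x := by
  rcases h.tau_cases hx with h1 | h1 | h1 | h1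
  · rw [h1]
  · linarith [h1.1]
  · rw [h1]; norm_num
  · linarith

/-- a union of classes -/
structure Rep.Good (h : Rep ρ) (S : Finset G) : Prop where
  one : (1 : G) ∉ S
  cl : ∀ x ∈ S, h.cl x ⊆ S

/-- proportion of a set -/
noncomputable def sg (S : Finset G) : ℚ := (S.card : ℚ) / (Nat.card G : ℚ)

theorem Rep.good_empty (h : Rep ρ) : h.Good ∅ := ⟨by simp, by simp⟩

theorem Rep.good_union (h : Rep ρ) [DecidableEq G] {S : Finset G} (hS : h.Good S) {x : G} (hx : x ≠ 1) (hxS : x ∉ S) :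
    h.Good (S ∪ h.cl x) ∧ sg (S ∪ h.cl x) = sg S + h.tau x := by
  constructor
  · constructor
    · rw [Finset.mem_union]
      rintro (h1 | h1)
      · exact hS.one h1
      · exact (h.mem_cl.1 h1).1 rfl
    · intro y hy
      rcases Finset.mem_union.1 hy with h1 | h1
      · exact (hS.cl y h1).trans Finset.subset_union_left
      · rw [h.cl_eq h1]; exact Finset.subset_union_right
  · have hd : Disjoint S (h.cl x) := by
      rw [Finset.disjoint_left]
      intro y hy hyx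
      apply hxS
      have h1 := h.cl_eq hyx
      exact hS.cl y hy (h1 ▸ h.self_mem_cl hx)
    unfold sg Rep.tau
    rw [Finset.card_union_of_disjoint hd]
    push_cast
    ring

theorem Rep.good_le (h : Rep ρ) {S : Finset G} (hS : h.Good S) : sg S ≤ 1 - 1 / (Nat.card G : ℚ) := by
  classical
  have hN : (0 : ℚ) < (Nat.card G : ℚ) := by exact_mod_cast Nat.card_pos
  have h1 : S.card + 1 ≤ Nat.card G := by
    rw [Nat.card_eq_fintype_card, ← Finset.card_univ, ← Finset.card_insert_of_notMem hS.one]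
    exact Finset.card_le_card (Finset.subset_univ _)
  unfold sg
  rw [div_le_iff₀ hN]
  have h2 : ((S.card : ℚ) + 1) ≤ (Nat.card G : ℚ) := by exact_mod_cast h1
  have h3 : (1 - 1 / (Nat.card G : ℚ)) * (Nat.card G : ℚ) = (Nat.card G : ℚ) - 1 := by
    field_simp
  rw [h3]; linarith

/-- one more class -/
theorem Rep.pick (h : Rep ρ) {S : Finset G} (hS : h.Good S) (hlt : sg S < 1 - 1 / (Nat.card G : ℚ)) :
    ∃ x : G, x ≠ 1 ∧ ∃ S' : Finset G, h.Good S' ∧ sg S' = sg S + h.tau x := by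
  classical
  have hN : (0 : ℚ) < (Nat.card G : ℚ) := by exact_mod_cast Nat.card_pos
  have : ∃ x, x ∉ insert 1 S := by
    by_contra hcon
    push Not at hcon
    have h1 : insert 1 S = (Finset.univ : Finset G) := Finset.eq_univ_iff_forall.2 hcon
    have h2 := congrArg Finset.card h1
    rw [Finset.card_insert_of_notMem hS.one, Finset.card_univ, ← Nat.card_eq_fintype_card] at h2
    unfold sg at hlt
    rw [div_lt_iff₀ hN] at hlt
    have h3 : (1 - 1 / (Nat.card G : ℚ)) * (Nat.card G : ℚ) = (Nat.card G : ℚ) - 1 := by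
      field_simp
    rw [h3, ← h2] at hlt
    push_cast at hlt
    linarith
  obtain ⟨x, hx⟩ := this
  rw [Finset.mem_insert] at hx
  push Not at hx
  obtain ⟨h1, h2⟩ := h.good_union hS hx.1 hx.2
  exact ⟨x, hx.1, _, h1, h2⟩

/-- first half of the counting: the axis of order `≥ 8` -/
theorem Rep.caseA (h : Rep ρ) {x : G} {v : Fin 3 → F} (hv : v ≠ 0) (hx : x ≠ 1) (hxv : x ∈ St ρ v) {n : G}
    (hn : ρ n *ᵥ v = -v) (h8 : 8 ≤ Nat.card (St ρ v)) (hN : Nat.card (St ρ v) * Nat.card (St ρ v) ≤ Nat.card G) :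
    False := by
  classical
  have ht := h.tau_flip hv hx hxv hn
  obtain ⟨hg1, hs1⟩ := h.good_union h.good_empty hx (by simp)
  have h0 : sg (∅ : Finset G) = 0 := by simp [sg]
  rw [h0, zero_add] at hs1
  set a := Nat.card (St ρ v) with ha
  set N := Nat.card G with hNdef
  have ha8 : (8 : ℚ) ≤ a := by exact_mod_cast h8
  have hN8 : (a : ℚ) * a ≤ N := by exact_mod_cast hN
  have ha0 : (0 : ℚ) < a := by linarith
  have hN0 : (0 : ℚ) < N := by nlinarith
  -- estimates
  have hia : 1 / (a : ℚ) ≤ 1 / 8 := one_div_le_one_div_of_le (by norm_num) ha8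
  have hiN : 1 / (N : ℚ) < (1 / (a : ℚ)) / 2 := by
    rw [div_div, div_lt_div_iff₀ hN0 (by linarith)]
    nlinarith
  have hiN0 : 0 < 1 / (N : ℚ) := by positivity
  have hS := hs1.trans ht
  -- first pick
  obtain ⟨x2, hx2, S2, hg2, hs2⟩ := h.pick hg1 (by rw [hS]; linarith)
  have hle2 := h.good_le hg2
  rw [hs2, hS] at hle2
  have fin : ∀ S : Finset G, h.Good S → sg S < 1 - 1 / (N : ℚ) → 3/4 + 0 < sg S + 0 → False := by
    intro S hgS hlt hge
    obtain ⟨y, hy, S', hg', hs'⟩ := h.pick hgS hlt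
    have h1 := h.good_le hg'
    rw [hs'] at h1
    have h2 := h.tau_ge hy
    linarith
  rcases h.tau_cases hx2 with h1 | h1 | h1 | h1
  · -- tau = 1/4
    obtain ⟨x3, hx3, S3, hg3, hs3⟩ := h.pick hg2 (by rw [hs2, hS, h1]; linarith)
    have hle3 := h.good_le hg3
    rw [hs3, hs2, hS, h1] at hle3
    rcases h.tau_cases hx3 with h2 | h2 | h2 | h2
    · exact fin S3 hg3 (by rw [hs3, hs2, hS, h1, h2]; linarith) (by rw [hs3, hs2, hS, h1, h2]; linarith)
    · linarith [h2.1]
    · linarith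
    · linarith
  · exact fin S2 hg2 (by rw [hs2, hS]; linarith [h1.2]) (by rw [hs2, hS]; linarith [h1.1])
  · exact fin S2 hg2 (by rw [hs2, hS, h1]; linarith) (by rw [hs2, hS, h1]; linarith)
  · linarith

/-- second half of the counting: the axis of order `4` -/
theorem Rep.caseB (h : Rep ρ) {x : G} {v : Fin 3 → F} (hv : v ≠ 0) (hx : x ≠ 1) (hxv : x ∈ St ρ v) {n : G}
    (hn : ρ n *ᵥ v = -v) (h4 : Nat.card (St ρ v) = 4)
    {y : G} {w : Fin 3 → F} (hw : w ≠ 0) (hy : y ≠ 1) (hyw : y ∈ St ρ w) {m : G}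
    (hm : ρ m *ᵥ w = -w) (h3 : 3 ∣ Nat.card (St ρ w)) (h24 : 24 ∣ Nat.card G) : Nat.card G = 24 := by
  classical
  by_contra hne
  have hN48 : 48 ≤ Nat.card G := by
    obtain ⟨k, hk⟩ := h24
    have : 0 < Nat.card G := Nat.card_pos
    rcases Nat.lt_or_ge k 2 with h5 | h5
    · interval_cases k
      · omega
      · omega
    · omega
  have ht := h.tau_flip hv hx hxv hn
  have ht' := h.tau_flip hw hy hyw hm
  rw [h4] at ht
  obtain ⟨hg1, hs1⟩ := h.good_union h.good_empty hx (by simp)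
  have h0 : sg (∅ : Finset G) = 0 := by simp [sg]
  rw [h0, zero_add] at hs1
  have hyS : y ∉ ∅ ∪ h.cl x := by
    rw [Finset.empty_union]
    intro hyx
    have h5 := h.cl_eq hyx
    -- the stabilisers have the same order
    have h6 : Nat.card (St ρ w) = 4 := by
      obtain ⟨-, g, hg⟩ := h.mem_cl.1 hyx
      rw [h.St_ax hx hv hxv] at hg
      have h7 : y ∈ St ρ (ρ g⁻¹ *ᵥ v) := mem_St_ap'.2 hg
      have h8 := h.St_eq hy (ap_ne_zero hv g⁻¹) hw h7 hyw
      rw [h8, ← h4]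
      have h9 : St ρ (ρ g⁻¹ *ᵥ v) = (St ρ v).map (MulAut.conj g⁻¹).toMonoidHom := by
        ext z
        rw [mem_St_ap', Subgroup.mem_map]
        constructor
        · intro hz
          exact ⟨_, hz, by simp [MulAut.conj_apply, mul_assoc]⟩
        · rintro ⟨z', hz', rfl⟩
          simpa [MulAut.conj_apply, mul_assoc] using hz'
      rw [h9]
      exact Subgroup.card_map_of_injective (MulAut.conj g⁻¹).injective
    rw [h6] at h3
    omega
  obtain ⟨hg2, hs2⟩ := h.good_union hg1 hy hyS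
  set b := Nat.card (St ρ w) with hb
  set N := Nat.card G with hNdef
  have hN0 : (48 : ℚ) ≤ N := by exact_mod_cast hN48
  have hiN : 1 / (N : ℚ) ≤ 1 / 48 := one_div_le_one_div_of_le (by norm_num) hN0
  have hiN0 : 0 < 1 / (N : ℚ) := by positivity
  have hb2 := one_lt_card hy hyw
  rw [← hb] at hb2
  have hS := hs2
  rw [hs1, ht, ht'] at hS
  have hb0 : (0 : ℚ) < b := by exact_mod_cast (by omega : 0 < b)
  have hib0 : 0 < 1 / (b : ℚ) := by positivity
  rcases Nat.lt_or_ge b 6 with h5 | h5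
  · have hb3 : b = 3 := by omega
    rw [hb3] at hS
    push_cast at hS
    obtain ⟨x3, hx3, S3, hg3, hs3⟩ := h.pick hg2 (by rw [hS]; linarith)
    have hle3 := h.good_le hg3
    rw [hs3, hS] at hle3
    rcases h.tau_cases hx3 with h1 | h1 | h1 | h1
    · obtain ⟨x4, hx4, S4, hg4, hs4⟩ := h.pick hg3 (by rw [hs3, hS, h1]; linarith)
      have hle4 := h.good_le hg4
      rw [hs4, hs3, hS, h1] at hle4
      linarith [h.tau_ge hx4]
    · linarith [h1.1]
    · linarith
    · linarith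
  · have hb6 : (6 : ℚ) ≤ b := by exact_mod_cast h5
    have hib : 1 / (b : ℚ) ≤ 1 / 6 := one_div_le_one_div_of_le (by norm_num) hb6
    push_cast at hS
    obtain ⟨x3, hx3, S3, hg3, hs3⟩ := h.pick hg2 (by rw [hS]; linarith)
    have hle3 := h.good_le hg3
    rw [hs3, hS] at hle3
    linarith [h.tau_ge hx3]

end cls

theorem card_St_ap [Finite G] (g : G) (v : Fin 3 → F) : Nat.card (St ρ (ρ g *ᵥ v)) = Nat.card (St ρ v) := by
  have h9 : St ρ (ρ g *ᵥ v) = (St ρ v).map (MulAut.conj g).toMonoidHom := by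
    ext z
    rw [mem_St_ap, Subgroup.mem_map]
    constructor
    · intro hz
      exact ⟨_, hz, by simp [mul_assoc]⟩
    · rintro ⟨z', hz', rfl⟩
      simpa [MulAut.conj_apply, mul_assoc] using hz'
  rw [h9]
  exact Subgroup.card_map_of_injective (MulAut.conj g).injective

theorem single_ne (i : Fin 3) : (Pi.single i (1 : F) : Fin 3 → F) ≠ 0 := by
  intro h
  have := congrFun h i
  simp at this

/-- (E1): a finite group of proper orthogonal matrices containing the rotations of the cube and without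
non-trivial elements fixing a singular vector consists of monomial matrices -/
theorem E1 [Finite G] (h : Rep ρ) (q c f m : G) (hq : ρ q *ᵥ Pi.single 0 1 = Pi.single 0 1) (hq4 : orderOf q = 4)
    (hc0 : ρ c *ᵥ Pi.single 0 1 = Pi.single 1 1) (hc1 : ρ c *ᵥ Pi.single 1 1 = Pi.single 2 1)
    (hc2 : ρ c *ᵥ Pi.single 2 1 = Pi.single 0 1) (hf : ρ f *ᵥ Pi.single 0 1 = -Pi.single 0 1)
    (hm : ρ m *ᵥ (fun _ => 1) = -(fun _ => 1)) (g : G) (i : Fin 3) :
    ∃ j : Fin 3, ρ g *ᵥ Pi.single i 1 = Pi.single j 1 ∨ ρ g *ᵥ Pi.single i 1 = -Pi.single j 1 := by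
  classical
  have : Fintype G := Fintype.ofFinite G
  have hq1 : q ≠ 1 := by
    rintro rfl
    rw [orderOf_one] at hq4
    omega
  have hqS : q ∈ St ρ (Pi.single 0 1) := hq
  have h4 : 4 ∣ Nat.card (St ρ (Pi.single 0 (1 : F))) := by
    rw [← hq4]; exact Subgroup.orderOf_dvd_natCard _ hqS
  have hpos : 0 < Nat.card (St ρ (Pi.single 0 (1 : F))) := Nat.card_pos
  -- the product bound
  have hinf : ∀ x : G, x ∈ St ρ (Pi.single 0 (1 : F)) → x ∈ St ρ (Pi.single 1 (1 : F)) → x = 1 := by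
    intro x h0 h1
    by_contra hx
    obtain ⟨k, hk⟩ := h.unique hx (single_ne 0) h0 h1
    have := congrFun hk 1
    simp at this
  have hcard1 : Nat.card (St ρ (Pi.single 1 (1 : F))) = Nat.card (St ρ (Pi.single 0 (1 : F))) := by
    rw [← hc0]; exact card_St_ap c _
  have hprod : Nat.card (St ρ (Pi.single 0 (1 : F))) * Nat.card (St ρ (Pi.single 0 (1 : F))) ≤ Nat.card G := by
    nth_rewrite 2 [← hcard1]
    rw [← Nat.card_prod]
    apply Nat.card_le_card_of_injective (fun p : St ρ (Pi.single 0 (1 : F)) × St ρ (Pi.single 1 (1 : F)) => (p.1.1 * p.2.1 : G))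
    rintro ⟨⟨a, ha⟩, ⟨b, hb⟩⟩ ⟨⟨a', ha'⟩, ⟨b', hb'⟩⟩ hab
    have hab : a * b = a' * b' := hab
    have h1 : a'⁻¹ * a = b' * b⁻¹ := by
      rw [eq_mul_inv_iff_mul_eq, mul_assoc, hab]; group
    have h2 : a'⁻¹ * a = 1 := hinf _ ((St ρ _).mul_mem ((St ρ _).inv_mem ha') ha)
      (h1 ▸ (St ρ _).mul_mem hb' ((St ρ _).inv_mem hb))
    have h3 : a = a' := by
      have := inv_mul_eq_one.1 h2
      exact this.symm
    subst h3
    have h4 : b = b' := mul_left_cancel hab
    subst h4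
    rfl
  have hn4 : Nat.card (St ρ (Pi.single 0 (1 : F))) = 4 := by
    rcases Nat.lt_or_ge (Nat.card (St ρ (Pi.single 0 (1 : F)))) 8 with h5 | h5
    · obtain ⟨k, hk⟩ := h4
      omega
    · exact (h.caseA (single_ne 0) hq1 hqS hf h5 hprod).elim
  -- the axis (1,1,1)
  have hw : (fun _ => 1 : Fin 3 → F) ≠ 0 := by
    intro h0
    have := congrFun h0 0
    simp at this
  have hw' : (fun _ => 1 : Fin 3 → F) = Pi.single 0 1 + Pi.single 1 1 + Pi.single 2 1 := by
    funext k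
    fin_cases k <;> simp
  have hcw : c ∈ St ρ (fun _ => 1) := by
    rw [mem_St, hw', Matrix.mulVec_add, Matrix.mulVec_add, hc0, hc1, hc2]
    ring
  have hc1' : c ≠ 1 := by
    rintro rfl
    rw [ap_one] at hc0
    have := congrFun hc0 0
    simp at this
  have hc3 : c ^ 3 = 1 := by
    apply h.inj
    rw [map_one]
    have key : ∀ k : Fin 3, ρ (c ^ 3) *ᵥ Pi.single k 1 = Pi.single k 1 := by
      intro k
      rw [pow_three, ap_mul, ap_mul]
      fin_cases k
      · change ρ c *ᵥ (ρ c *ᵥ (ρ c *ᵥ Pi.single 0 1)) = Pi.single 0 1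
        rw [hc0, hc1, hc2]
      · change ρ c *ᵥ (ρ c *ᵥ (ρ c *ᵥ Pi.single 1 1)) = Pi.single 1 1
        rw [hc1, hc2, hc0]
      · change ρ c *ᵥ (ρ c *ᵥ (ρ c *ᵥ Pi.single 2 1)) = Pi.single 2 1
        rw [hc2, hc0, hc1]
    ext a b
    have := congrFun (key b) a
    rw [Matrix.mulVec_single_one] at this
    rw [Matrix.one_apply]
    rw [Matrix.col_apply] at this
    rw [this, Pi.single_apply]
  have hco : orderOf c = 3 := orderOf_eq_prime hc3 hc1'
  have h3 : 3 ∣ Nat.card (St ρ (fun _ => (1 : F))) := by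
    have h5 := Subgroup.orderOf_dvd_natCard _ hcw
    rwa [hco] at h5
  have h8 : 8 ∣ Nat.card G := by
    have h5 := h.card_N_of_flip (single_ne 0) hq1 hqS hf
    rw [hn4] at h5
    have h6 := Subgroup.card_subgroup_dvd_card (Subgroup.normalizer (St ρ (Pi.single 0 (1 : F)) : Set G))
    rw [h5] at h6
    exact h6
  have h3' : 3 ∣ Nat.card G := h3.trans (Subgroup.card_subgroup_dvd_card _)
  have h24 : 24 ∣ Nat.card G := by
    have : Nat.Coprime 8 3 := by norm_num
    exact this.mul_dvd_of_dvd_of_dvd h8 h3'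
  have hN := h.caseB (single_ne 0) hq1 hqS hf hn4 hw hc1' hcw hm h3 h24
  -- the orbit of e0
  let act : MulAction G (Fin 3 → F) :=
    { smul := fun g v => ρ g *ᵥ v
      one_smul := ap_one ρ
      mul_smul := ap_mul ρ }
  have hst : MulAction.stabilizer G (Pi.single 0 1 : Fin 3 → F) = St ρ (Pi.single 0 1) := rfl
  have horb : (MulAction.orbit G (Pi.single 0 1 : Fin 3 → F)).ncard = 6 := by
    have h5 := MulAction.index_stabilizer G (Pi.single 0 1 : Fin 3 → F)
    rw [← h5, hst]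
    have h6 := Subgroup.card_mul_index (St ρ (Pi.single 0 (1 : F)))
    rw [hn4, hN] at h6
    omega
  let φ : Fin 3 × Bool → (Fin 3 → F) := fun p => if p.2 then Pi.single p.1 1 else -Pi.single p.1 1
  have hφ : Function.Injective φ := by
    rintro ⟨j, b⟩ ⟨k, b'⟩ hjk
    have hjk' : j = k := by
      by_contra hne
      have := congrFun hjk j
      cases b <;> cases b' <;> simp [φ, hne] at this
    subst hjk'
    have h7 : (-1 : F) ≠ 1 := by
      intro h8
      apply h.two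
      have : (1 : F) + 1 = 0 := by
        nth_rewrite 1 [← h8]; ring
      rw [← this]; norm_num
    have := congrFun hjk j
    cases b <;> cases b' <;> simp [φ] at this ⊢
    · exact h7 this
    · exact h7 this.symm
  have hmem : ∀ j : Fin 3, ∃ x : G, ρ x *ᵥ Pi.single 0 1 = Pi.single j 1 := by
    intro j
    fin_cases j
    · exact ⟨1, ap_one ρ _⟩
    · exact ⟨c, hc0⟩
    · exact ⟨c * c, by rw [ap_mul, hc0, hc1]; rfl⟩
  have hsub : Set.range φ ⊆ MulAction.orbit G (Pi.single 0 1 : Fin 3 → F) := by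
    rintro _ ⟨⟨j, b⟩, rfl⟩
    obtain ⟨x, hx⟩ := hmem j
    cases b
    · refine ⟨x * f, ?_⟩
      change ρ (x * f) *ᵥ Pi.single 0 1 = _
      rw [ap_mul, hf, Matrix.mulVec_neg, hx]
      simp [φ]
    · refine ⟨x, ?_⟩
      change ρ x *ᵥ Pi.single 0 1 = _
      rw [hx]
      simp [φ]
  have hfin : (MulAction.orbit G (Pi.single 0 1 : Fin 3 → F)).Finite := Set.finite_of_ncard_ne_zero (by omega)
  have heq : Set.range φ = MulAction.orbit G (Pi.single 0 1 : Fin 3 → F) := by
    apply Set.eq_of_subset_of_ncard_le hsub _ hfin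
    rw [horb, Set.ncard_range_of_injective hφ]
    simp
  obtain ⟨x, hx⟩ := hmem i
  have h9 : ρ g *ᵥ Pi.single i 1 ∈ MulAction.orbit G (Pi.single 0 1 : Fin 3 → F) := by
    refine ⟨g * x, ?_⟩
    change ρ (g * x) *ᵥ Pi.single 0 1 = _
    rw [ap_mul, hx]
  rw [← heq] at h9
  obtain ⟨⟨j, b⟩, hj⟩ := h9
  refine ⟨j, ?_⟩
  cases b
  · right; rw [← hj]; simp [φ]
  · left; rw [← hj]; simp [φ]

end Cfsg.Agent.H6.FrE
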